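/-
Simple groups of order 660: recognition of PSL(2,11).
-/
import Cfsg.Agent.Lib.Small.PSL2Rec

set_option autoImplicit false

namespace Cfsg.Agent.Lib.Small.PSL2P11

open Cfsg.Agent.Lib.Small.Basic Cfsg.Agent.Lib.Small.Sieve Cfsg.Agent.Lib.Small.PSL2Check
  Cfsg.Agent.Lib.Small.PSL2Rec

universe u v

instance fact_prime : Fact (Nat.Prime 11) := ⟨by norm_num⟩

/-- A simple group of order 660 is `PSL(2, ZMod 11)`. -/
theorem nonempty_mulEquiv_zmod {G : Type u} [Group G] [Finite G] [IsSimpleGroup G]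
    (h : Nat.card G = 660) : Nonempty (G ≃* Matrix.ProjectiveSpecialLinearGroup (Fin 2) (ZMod 11)) := by
  have hnc : ¬ IsMulCommutative G := not_comm_of_not_prime (by rw [h]; norm_num)
  have hf : 660 = 11 ^ 1 * 60 := by norm_num
  have hm := card_sylow_mem_candidates (G := G) (p := 11) (k := 1) (m := 60) hnc h hf
    (by norm_num) (by norm_num)
  have hc : candidates 660 11 1 60 = [12] := by decide +kernel
  rw [hc, List.mem_singleton] at hm
  have hrp : ∀ P : Sylow 11 G, Nat.card P = 11 := fun P => by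
    simpa using card_sylow_eq (h.trans hf) (by norm_num) P
  exact nonempty_mulEquiv_PSL_zmod hnc 11 5 (by rw [h]) hrp hm
    (a₀ := 4) (r₁ := 1) (r₂ := 2) (e := 2) (L := 5) (nz := [1, 2, 3, 4, 5, 6, 7, 8, 9, 10])
    (sq := [1, 3, 4, 5, 9]) (A1s := [1, 3, 4, 5, 9])
    (by decide +kernel) (by decide +kernel) (by decide +kernel) (by decide +kernel)
    (by decide +kernel) (by decide +kernel) (by decide +kernel) (by decide +kernel)
    (by decide +kernel) (by decide +kernel)
    (fun a ha => by
      revert a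
      have hall : ∀ a : ZMod 11, a.val ∈ ([1, 3, 4, 5, 9] : List ℕ) →
          a ∈ (List.range 5).map (fun k => (4 : ZMod 11) ^ k) := by decide +kernel
      intro a ha
      obtain ⟨k, -, hk⟩ := List.mem_map.mp (hall a ha)
      exact ⟨k, hk.symm⟩)
    (by decide +kernel) (by decide +kernel)
    (fun _ _ _ _ _ _ _ _ _ _ _ h => h)

/-- A simple group of order 660 is `PSL(2, F)`, `F` any field with 11 elements. -/
theorem nonempty_mulEquiv {G : Type u} [Group G] [Finite G] [IsSimpleGroup G]
    (h : Nat.card G = 660) {F : Type v} [Field F] [Fintype F] (hF : Fintype.card F = 11) :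
    Nonempty (G ≃* Matrix.ProjectiveSpecialLinearGroup (Fin 2) F) := by
  obtain ⟨e₁⟩ := nonempty_mulEquiv_zmod h
  obtain ⟨e₂⟩ := nonempty_pslCongr_of_card (K := ZMod 11) (L := F) (by rw [ZMod.card, hF])
  exact ⟨e₁.trans e₂⟩

end Cfsg.Agent.Lib.Small.PSL2P11
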